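import Cfsg.Agent.FGS4.SingularGraph.Translate
import Mathlib.Algebra.BigOperators.Group.Finset.Basic

/-! # A class size prime to `p` meets one divisible by `p` -/

set_option linter.style.haveILetI false

namespace Cfsg.Agent.FGS4.SingularGraph

open Subgroup ThreeSizes

variable {G : Type*} [Group G] [Finite G] {p : ℕ} [hp : Fact p.Prime]

/-- Two primes dividing the class size of one `p`-singular element. -/
def Adj (G : Type*) [Group G] (p t v : ℕ) : Prop :=
  ∃ g : G, p ∣ orderOf g ∧ t ∣ (cz g).index ∧ v ∣ (cz g).index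

theorem index_dvd_card_of_surj (H K : Subgroup G) (h : ∀ g : G, ∃ k ∈ K, k⁻¹ * g ∈ H) :
    H.index ∣ Nat.card K := by
  have hst : MulAction.stabilizer K ((1 : G) : G ⧸ H) = H.subgroupOf K := by
    ext k
    rw [MulAction.mem_stabilizer_iff, Subgroup.mem_subgroupOf,
      show k • ((1 : G) : G ⧸ H) = (((k : G) * 1 : G) : G ⧸ H) from rfl, QuotientGroup.eq]
    simp
  have horb : MulAction.orbit K ((1 : G) : G ⧸ H) = Set.univ := by
    refine Set.eq_univ_of_forall fun q => ?_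
    obtain ⟨g, rfl⟩ := QuotientGroup.mk_surjective q
    obtain ⟨k, hk, hkg⟩ := h g
    refine ⟨⟨k, hk⟩, ?_⟩
    show (((k : G) * 1 : G) : G ⧸ H) = g
    rw [QuotientGroup.eq, mul_one]; exact hkg
  have : H.index = H.relIndex K := by
    rw [relIndex, ← hst, MulAction.index_stabilizer, horb, Set.ncard_univ]; rfl
  rw [this]; exact relIndex_dvd_card H K

omit [Finite G] in
theorem orderOf_eq_of_pow {x : G} (hx : x ^ p = 1) (hx1 : x ≠ 1) : orderOf x = p :=
  orderOf_eq_prime hx hx1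

theorem notMem_center (hZ : ¬ p ∣ Nat.card (center G)) {x : G} (hx : p ∣ orderOf x) : x ∉ center G :=
  fun h => hZ (hx.trans (by
    rw [← Subgroup.orderOf_mk x h]
    exact orderOf_dvd_natCard (⟨x, h⟩ : center G)))

omit [Finite G] in
theorem index_cz_one : (cz (1 : G)).index = 1 := idx_one_iff.2 (one_mem _)

theorem dvd_orderOf_of_mem (P : Sylow p G) {a : G} (ha : a ∈ (P : Subgroup G)) (h1 : a ≠ 1) :
    (∃ j, orderOf a = p ^ j) ∧ p ∣ orderOf a := by
  obtain ⟨j, hj⟩ := IsPGroup.iff_orderOf.1 P.isPGroup' ⟨a, ha⟩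
  rw [Subgroup.orderOf_mk] at hj
  refine ⟨⟨j, hj⟩, ?_⟩
  rcases Nat.eq_zero_or_pos j with rfl | hj0
  · exact absurd (orderOf_eq_one_iff.1 hj) h1
  · rw [hj]; exact dvd_pow_self p hj0.ne'

/-- The translations of the class of `z` generate the closure of the class. -/
theorem cls_subset_trans (hZ : ¬ p ∣ Nat.card (center G)) {z : G} (hz : z ^ p = 1)
    (hn : ¬ p ∣ (cz z).index) (hcomm : ∀ g h : G, Commute (g * z * g⁻¹) (h * z * h⁻¹)) :
    cls z ⊆ (closure {w | ∃ h : G, w = z * (h * z * h⁻¹)⁻¹} : Subgroup G) := by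
  classical
  set T' := closure {w | ∃ h : G, w = z * (h * z * h⁻¹)⁻¹}
  set K := closure (cls z) with hKdef
  have hK : K ≤ centralizer (K : Set G) := by
    have h1 : K ≤ centralizer (cls z) := by
      rw [hKdef, closure_le]
      rintro _ ⟨g, rfl⟩
      rw [SetLike.mem_coe, mem_centralizer_iff]
      rintro _ ⟨h, rfl⟩
      exact hcomm h g
    rw [hKdef, closure_le]
    intro a ha
    rw [SetLike.mem_coe, mem_centralizer_iff]
    intro b hb
    exact ((mem_centralizer_iff.1 (h1 hb)) a ha).symm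
  letI : CommGroup K :=
    { (inferInstance : Group K) with
      mul_comm := fun a b => Subtype.ext ((mem_centralizer_iff.1 (hK b.2)) a a.2) }
  haveI : Fintype (cls z) := Fintype.ofFinite _
  let f : cls z → K := fun y => ⟨y, subset_closure y.2⟩
  set π : K := ∏ y, f y with hπ
  have hπp : π ^ p = 1 := by
    rw [hπ, ← Finset.prod_pow]
    refine Finset.prod_eq_one fun y _ => Subtype.ext ?_
    obtain ⟨g, hg⟩ := y.2
    show (y : G) ^ p = 1
    rw [← hg, conj_pow, hz]; simp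
  have hKn : ∀ (g : G), ∀ a ∈ K, g * a * g⁻¹ ∈ K := by
    intro g a ha
    induction ha using Subgroup.closure_induction with
    | mem w hw =>
      obtain ⟨h, rfl⟩ := hw
      exact subset_closure ⟨g * h, by group⟩
    | one => simp
    | mul a b _ _ iha ihb =>
      rw [show g * (a * b) * g⁻¹ = g * a * g⁻¹ * (g * b * g⁻¹) by group]; exact mul_mem iha ihb
    | inv a _ iha => rw [show g * a⁻¹ * g⁻¹ = (g * a * g⁻¹)⁻¹ by group]; exact inv_mem iha
  have hπc : (π : G) ∈ center G := by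
    rw [Subgroup.mem_center_iff]
    intro g
    let φ : K →* K :=
      { toFun := fun a => ⟨g * a * g⁻¹, hKn g a a.2⟩
        map_one' := Subtype.ext (by simp)
        map_mul' := fun a b => Subtype.ext (by simp [mul_assoc]) }
    have hmem : ∀ (c : G) (y : G), y ∈ cls z → c * y * c⁻¹ ∈ cls z := by
      rintro c _ ⟨h, rfl⟩; exact ⟨c * h, by group⟩
    let e : cls z ≃ cls z :=
      { toFun := fun y => ⟨g * y * g⁻¹, hmem g y y.2⟩
        invFun := fun y => ⟨g⁻¹ * y * g, by simpa using hmem g⁻¹ y y.2⟩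
        left_inv := fun y => Subtype.ext (by simp [mul_assoc])
        right_inv := fun y => Subtype.ext (by simp [mul_assoc]) }
    have h1 : φ π = π := by
      rw [hπ, map_prod]
      exact Fintype.prod_equiv e _ f fun y => rfl
    have h2 : g * (π : G) * g⁻¹ = π := congrArg (Subtype.val : K → G) h1
    exact mul_inv_eq_iff_eq_mul.1 h2
  have hπ1 : π = 1 := by
    by_contra h1
    have h1' : (π : G) ≠ 1 := fun h => h1 (Subtype.ext h)
    refine notMem_center hZ ?_ hπc
    rw [orderOf_eq_of_pow (by rw [← Subgroup.coe_pow, hπp, Subgroup.coe_one]) h1']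
  have hzn : z ^ (cz z).index ∈ T' := by
    have h1 : ∏ y, (f ⟨z, self_mem_cls z⟩ * (f y)⁻¹) ∈ T'.subgroupOf K := by
      refine Subgroup.prod_mem _ fun y _ => ?_
      obtain ⟨h, hh⟩ := y.2
      rw [mem_subgroupOf]
      refine subset_closure ⟨h, ?_⟩
      show z * (y : G)⁻¹ = _
      rw [hh]
    rw [Finset.prod_mul_distrib, Finset.prod_inv_distrib, ← hπ, hπ1, inv_one, mul_one,
      Finset.prod_const, Finset.card_univ, mem_subgroupOf, Subgroup.coe_pow] at h1
    rwa [← Nat.card_eq_fintype_card, Nat.card_coe_set_eq, ncard_cls] at h1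
  have hzT : z ∈ T' := by
    by_cases hz1 : z = 1
    · rw [hz1]; exact one_mem _
    obtain ⟨j, hj⟩ := exists_pow_eq_self_of_coprime (x := z) (n := (cz z).index)
      (by rw [orderOf_eq_of_pow hz hz1]; exact ((hp.out.coprime_iff_not_dvd).2 hn).symm)
    rw [← hj]; exact pow_mem hzn j
  rintro _ ⟨h, rfl⟩
  have h1 : z * (h * z * h⁻¹)⁻¹ ∈ T' := subset_closure ⟨h, rfl⟩
  have := mul_mem (inv_mem h1) hzT
  simpa [mul_assoc] using this

theorem bridge (hZ : ¬ p ∣ Nat.card (center G)) {x z : G} (hx : x ^ p = 1) (hz : z ^ p = 1)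
    (hz1 : z ≠ 1) (hpx : p ∣ (cz x).index) (hpz : ¬ p ∣ (cz z).index) :
    ∃ t v : ℕ, t.Prime ∧ v.Prime ∧ t ∣ (cz x).index ∧ v ∣ (cz z).index ∧ Adj G p t v := by
  by_contra hne
  push Not at hne
  have hpo : ∀ {a : G}, a ^ p = 1 → a ≠ 1 → p ∣ orderOf a := fun h h1 =>
    (orderOf_eq_of_pow h h1).symm.dvd
  have hn1 : (cz z).index ≠ 1 := fun h => notMem_center hZ (hpo hz hz1) (idx_one_iff.1 h)
  -- class sizes divisible by `p` are prime to `(cz z).index`
  have H1 : ∀ g : G, p ∣ orderOf g → p ∣ (cz g).index → (cz g).index.Coprime (cz z).index := by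
    intro g hg hpg
    refine Nat.coprime_of_dvd fun v hv h1 h2 => hne p v hp.out hv hpx h2 ⟨g, hg, hpg, h1⟩
  have hoz : orderOf z = p := orderOf_eq_of_pow hz hz1
  -- the Sylow subgroup of `cz z`
  obtain ⟨P, hP⟩ := exists_sylow_le (H := cz z) hpz
  have hdec := decompose (H := cz z) (q := p) (fun y hy => by
    have hy' : (orderOf (y : G)).Coprime p := by rwa [Subgroup.orderOf_coe]
    have hyz : Commute z (y : G) := (mem_cz.1 y.2).symm
    have hcop : (orderOf z).Coprime (orderOf (y : G)) := by rw [hoz]; exact hy'.symm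
    have hpzy : p ∣ orderOf (z * (y : G)) := by
      rw [hyz.orderOf_mul_eq_mul_orderOf_of_coprime hcop, hoz]; exact dvd_mul_right _ _
    have hle := cz_mul_eq hyz hcop
    have hdvd : (cz z).index ∣ (cz (z * (y : G))).index :=
      index_dvd_of_le (hle.le.trans inf_le_left)
    have hnp : ¬ p ∣ (cz (z * (y : G))).index := fun h =>
      hn1 ((H1 _ hpzy h).symm.eq_one_of_dvd hdvd)
    obtain ⟨S, hS⟩ := exists_sylow_le hnp
    refine ⟨S.subtype (hS.trans (hle.le.trans inf_le_left)), fun s hs => ?_⟩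
    rw [Sylow.coe_subtype, mem_subgroupOf] at hs
    exact Subtype.ext (mem_cz.1 ((hle.le.trans inf_le_right) (hS hs)))) (P.subtype hP)
  obtain ⟨hQn, hQc⟩ := hdec
  have hPn : ∀ c ∈ cz z, ∀ s ∈ (P : Subgroup G), c * s * c⁻¹ ∈ (P : Subgroup G) := by
    intro c hc s hs
    have h1 := hQn.conj_mem ⟨s, hP hs⟩ (by rw [Sylow.coe_subtype, mem_subgroupOf]; exact hs) ⟨c, hc⟩
    rwa [Sylow.coe_subtype, mem_subgroupOf] at h1
  have hPc : ∀ y ∈ cz z, (orderOf y).Coprime p → ∀ s ∈ (P : Subgroup G), s * y = y * s := by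
    intro y hy hyp s hs
    have h1 := hQc ⟨y, hy⟩ (by rwa [Subgroup.orderOf_mk]) ⟨s, hP hs⟩
      (by rw [Sylow.coe_subtype, mem_subgroupOf]; exact hs)
    exact congrArg Subtype.val h1
  have hPel : ∀ a ∈ cz z, ∀ j, orderOf a = p ^ j → a ∈ (P : Subgroup G) := by
    intro a ha j hj
    haveI := hQn
    have h1 := mem_sylow_of_normal (cz z) (P.subtype hP) ha hj
    rw [Sylow.coe_subtype, subgroupOf_map_subtype] at h1
    exact h1.1
  have hzP : z ∈ (P : Subgroup G) := hPel z (self_mem_cz z) 1 (by rw [hoz, pow_one])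
  -- move `x` into `P`
  obtain ⟨g0, hg0⟩ := exists_conj_mem P hx
  set x' := g0 * x * g0⁻¹ with hx'def
  have hx' : x' ^ p = 1 := by rw [hx'def, conj_pow, hx]; simp
  have hix : (cz x').index = (cz x).index := index_cz_conj g0 x
  rw [← hix] at hpx
  have hx'1 : x' ≠ 1 := fun h => hp.out.one_lt.ne' (Nat.dvd_one.1 (by
    rw [h, index_cz_one] at hpx; exact hpx))
  have hcxz : (cz x').index.Coprime (cz z).index := H1 _ (hpo hx' hx'1) hpx
  -- classes of elements of `P` with size prime to `(cz z).index`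
  have hcls : ∀ a ∈ (P : Subgroup G), (cz a).index.Coprime (cz z).index →
      ∀ g : G, ∃ u ∈ (P : Subgroup G), g * a * g⁻¹ = u * a * u⁻¹ := by
    intro a ha hca g
    obtain ⟨c, hc, hcg⟩ := conj_transitive hca.symm g
    obtain ⟨u, b, hub, -, ⟨j, hu⟩, hb, huc, hbc⟩ := exists_parts (r := p) c
    have hcle := (zpowers_le (H := cz z)).2 hc
    refine ⟨u, hPel u (hcle huc) j hu, ?_⟩
    have h1 := hPc b (hcle hbc) hb a ha
    rw [← hcg, hub]
    calc u * b * a * (u * b)⁻¹ = u * (b * a) * b⁻¹ * u⁻¹ := by group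
      _ = u * (a * b) * b⁻¹ * u⁻¹ := by rw [h1]
      _ = u * a * u⁻¹ := by group
  have hclsP : ∀ a ∈ (P : Subgroup G), (cz a).index.Coprime (cz z).index →
      ∀ g : G, g * a * g⁻¹ ∈ (P : Subgroup G) := by
    intro a ha hca g
    obtain ⟨u, hu, e⟩ := hcls a ha hca g
    rw [e]; exact mul_mem (mul_mem hu ha) (inv_mem hu)
  have hpdiv : ∀ a ∈ (P : Subgroup G), (cz a).index.Coprime (cz z).index → ∀ m : ℕ,
      ¬ m.Coprime (cz a).index → p ∣ m := by
    intro a ha hca m hm
    obtain ⟨t, ht, htm, hta⟩ := Nat.Prime.not_coprime_iff_dvd.1 hm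
    have h1 : (cz a).index ∣ Nat.card (P : Subgroup G) := by
      refine index_dvd_card_of_surj _ _ fun g => ?_
      obtain ⟨u, hu, e⟩ := hcls a ha hca g
      refine ⟨u, hu, mem_cz.2 ?_⟩
      calc u⁻¹ * g * a = u⁻¹ * (g * a * g⁻¹) * g := by group
        _ = u⁻¹ * (u * a * u⁻¹) * g := by rw [e]
        _ = a * (u⁻¹ * g) := by group
    rw [sylow_card_eq P] at h1
    have htp := (Nat.prime_dvd_prime_iff_eq ht hp.out).1 (ht.dvd_of_dvd_pow (hta.trans h1))
    rwa [← htp]
  -- the class of `x'` is stable under translations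
  have hxz' : Commute x' z := mem_cz.1 (hP hg0)
  have hstab0 : ∀ a : G, a ^ p = 1 → a ∈ (P : Subgroup G) → p ∣ (cz a).index →
      ∀ w ∈ {w | ∃ h : G, w = z * (h * z * h⁻¹)⁻¹}, ∀ s ∈ cls a, s * w ∈ cls a := by
    intro a hap haP hpa
    have ha1 : a ≠ 1 := fun h => hp.out.one_lt.ne' (Nat.dvd_one.1 (by
      rw [h, index_cz_one] at hpa; exact hpa))
    have hca := H1 a (hpo hap ha1) hpa
    have haz : Commute a z := mem_cz.1 (hP haP)
    have haz1 : a * z ≠ 1 := fun h => hpz (by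
      rw [eq_inv_of_mul_eq_one_left h, cz_inv] at hpa; exact hpa)
    have hazp : (a * z) ^ p = 1 := by rw [haz.mul_pow, hap, hz, one_mul]
    have h1 := not_coprime_mul haz hz hca hpz (fun h => hp.out.one_lt.ne' (Nat.dvd_one.1 (h ▸ hpa)))
    have h2 := H1 _ (hpo hazp haz1) (hpdiv a haP hca _ h1)
    rintro _ ⟨h, rfl⟩ _ ⟨g, rfl⟩
    exact closed hca h2 g h
  have hcomm : ∀ g h : G, Commute (g * z * g⁻¹) (h * z * h⁻¹) := by
    have h0 : ∀ h : G, Commute z (h * z * h⁻¹) := by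
      intro h
      obtain ⟨c, hc⟩ := hstab0 x' hx' hg0 hpx _ ⟨h, rfl⟩ x' (self_mem_cls x')
      have hw : Commute (z * (h * z * h⁻¹)⁻¹) z := by
        have e1 : z * (h * z * h⁻¹)⁻¹ = x'⁻¹ * (c * x' * c⁻¹) := by rw [hc, inv_mul_cancel_left]
        rw [e1]
        have e2 := commute_all hxz' hcxz c 1
        simp only [one_mul, inv_one, mul_one] at e2
        exact hxz'.inv_left.mul_left e2
      have e3 : h * z * h⁻¹ = (z * (h * z * h⁻¹)⁻¹)⁻¹ * z := by group
      rw [e3]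
      exact hw.inv_left.symm.mul_right (Commute.refl z)
    intro g h
    have h1 := (h0 (g⁻¹ * h)).map (MulAut.conj g).toMonoidHom
    simp only [MulEquiv.toMonoidHom_eq_coe, MonoidHom.coe_coe, MulAut.conj_apply] at h1
    rwa [show g * (g⁻¹ * h * z * (g⁻¹ * h)⁻¹) * g⁻¹ = h * z * h⁻¹ by group] at h1
  have hT := cls_subset_trans hZ hz hpz hcomm
  set K := closure (cls z) with hKdef
  have hKT : K ≤ closure {w | ∃ h : G, w = z * (h * z * h⁻¹)⁻¹} := (closure_le _).2 hT
  have hKp : ∀ k ∈ K, k ^ p = 1 ∧ ∀ g : G, Commute k (g * z * g⁻¹) := by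
    intro k hk
    induction hk using Subgroup.closure_induction with
    | mem w hw =>
      obtain ⟨g, rfl⟩ := hw
      exact ⟨by rw [conj_pow, hz]; simp, fun h => hcomm g h⟩
    | one => exact ⟨one_pow p, fun g => Commute.one_left _⟩
    | mul a b _ hb' iha ihb =>
      refine ⟨?_, fun g => (iha.2 g).mul_left (ihb.2 g)⟩
      have hab : Commute a b := by
        have : b ∈ centralizer ({a} : Set G) := by
          refine (closure_le _).2 ?_ hb'
          rintro _ ⟨g, rfl⟩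
          exact mem_cz.2 (iha.2 g).symm
        exact (mem_cz.1 this).symm
      rw [hab.mul_pow, iha.1, ihb.1, one_mul]
    | inv a _ iha => exact ⟨by rw [inv_pow, iha.1, inv_one], fun g => (iha.2 g).inv_left⟩
  haveI hKn : K.Normal := by
    refine ⟨fun k hk g => ?_⟩
    induction hk using Subgroup.closure_induction with
    | mem w hw =>
      obtain ⟨h, rfl⟩ := hw
      exact subset_closure ⟨g * h, by group⟩
    | one => simp
    | mul a b _ _ iha ihb =>
      rw [show g * (a * b) * g⁻¹ = g * a * g⁻¹ * (g * b * g⁻¹) by group]; exact mul_mem iha ihb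
    | inv a _ iha => rw [show g * a⁻¹ * g⁻¹ = (g * a * g⁻¹)⁻¹ by group]; exact inv_mem iha
  have hKS : ∀ S : Sylow p G, K ≤ (S : Subgroup G) := by
    intro S
    have hKpg : IsPGroup p K := fun k => ⟨1, Subtype.ext (by simpa using (hKp k k.2).1)⟩
    have h1 := S.is_maximal' (hKpg.to_sup_of_normal_left S.isPGroup') le_sup_right
    rw [← h1]; exact le_sup_left
  -- every element of `K` is centralized by a Sylow subgroup
  have hKidx : ∀ k ∈ K, ¬ p ∣ (cz k).index := by
    intro k hk hpk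
    have h1 := stable_closure (hstab0 k (hKp k hk).1 (hKS P hk) hpk)
      (hKT (inv_mem hk)) k (self_mem_cls k)
    rw [mul_inv_cancel] at h1
    obtain ⟨g, hg⟩ := h1
    have : k = 1 := by
      rwa [mul_inv_eq_one, mul_eq_left] at hg
    rw [this, index_cz_one] at hpk
    exact hp.out.one_lt.ne' (Nat.dvd_one.1 hpk)
  have hPK : ∀ a ∈ (P : Subgroup G), ∀ k ∈ K, Commute a k := by
    intro a ha k hk
    by_cases hpa : p ∣ (cz a).index
    · have ha1 : a ≠ 1 := fun h => hp.out.one_lt.ne' (Nat.dvd_one.1 (by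
        rw [h, index_cz_one] at hpa; exact hpa))
      have hca := H1 a (dvd_orderOf_of_mem P ha ha1).2 hpa
      obtain ⟨S, hS⟩ := exists_sylow_le (hKidx k hk)
      obtain ⟨g, hg⟩ := exists_conj_sylow S P
      exact mem_cz.1 (hS ((hg a).2 (hclsP a ha hca g)))
    · obtain ⟨S, hS⟩ := exists_sylow_le hpa
      exact (show Commute k a from mem_cz.1 (hS (hKS S hk))).symm
  have hPnorm : ∀ a ∈ (P : Subgroup G), ∀ g : G, g * a * g⁻¹ ∈ (P : Subgroup G) := by
    intro a ha g
    have h1 := hPK a ha (g⁻¹ * z * g) (subset_closure ⟨g⁻¹, by group⟩)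
    have h2 : Commute (g * a * g⁻¹) z := by
      have := h1.map (MulAut.conj g).toMonoidHom
      simp only [MulEquiv.toMonoidHom_eq_coe, MonoidHom.coe_coe, MulAut.conj_apply] at this
      rwa [show g * (g⁻¹ * z * g) * g⁻¹ = z by group] at this
    obtain ⟨j, hj⟩ := IsPGroup.iff_orderOf.1 P.isPGroup' ⟨a, ha⟩
    rw [Subgroup.orderOf_mk] at hj
    refine hPel _ (mem_cz.2 h2) j ?_
    rw [← MulAut.conj_apply, MulEquiv.orderOf_eq, hj]
  -- a prime divisor of `(cz z).index`
  obtain ⟨v, hv, hvn⟩ := Nat.exists_prime_and_dvd hn1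
  haveI := Fact.mk hv
  obtain ⟨V⟩ := (inferInstance : Nonempty (Sylow v G))
  set C' := (centralizer ((V : Subgroup G) : Set G)).subgroupOf (P : Subgroup G) with hC'
  set M := C' ⊔ center (P : Subgroup G) with hM
  have hMtop : M = ⊤ := by
    by_contra hMne
    obtain ⟨⟨a, ha⟩, hna⟩ := exists_notMem_conj M hMne
    by_cases hpa : p ∣ (cz a).index
    · have ha1 : a ≠ 1 := fun h => hp.out.one_lt.ne' (Nat.dvd_one.1 (by
        rw [h, index_cz_one] at hpa; exact hpa))
      have hca := H1 a (dvd_orderOf_of_mem P ha ha1).2 hpa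
      have hva : ¬ v ∣ (cz a).index := fun h => hv.one_lt.ne' (Nat.dvd_one.1
        (hca ▸ Nat.dvd_gcd h hvn))
      obtain ⟨S, hS⟩ := exists_sylow_le hva
      obtain ⟨g, hg⟩ := exists_conj_sylow S V
      obtain ⟨u, hu, e⟩ := hcls a ha hca g
      apply hna (⟨u, hu⟩⁻¹)
      refine mem_sup_left ?_
      rw [hC', mem_subgroupOf, mem_centralizer_iff]
      intro y hy
      simp only [inv_inv, Subgroup.coe_mul, InvMemClass.coe_inv]
      rw [← e]
      have h1 : g⁻¹ * y * g ∈ (S : Subgroup G) := (hg _).2 (by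
        rw [show g * (g⁻¹ * y * g) * g⁻¹ = y by group]; exact hy)
      have h2 := mem_cz.1 (hS h1)
      calc y * (g * a * g⁻¹) = g * (g⁻¹ * y * g * a) * g⁻¹ := by group
        _ = g * (a * (g⁻¹ * y * g)) * g⁻¹ := by rw [h2]
        _ = g * a * g⁻¹ * y := by group
    · obtain ⟨S, hS⟩ := exists_sylow_le hpa
      obtain ⟨g, hg⟩ := exists_conj_sylow S P
      apply hna 1
      refine mem_sup_right ?_
      rw [inv_one, one_mul, mul_one, Subgroup.mem_center_iff]
      intro b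
      exact Subtype.ext (mem_cz.1 (hS ((hg b).2 (hPnorm b b.2 g))))
  have hxzcls : x' * z ∈ cls x' :=
    stable_closure (hstab0 x' hx' hg0 hpx) (hT (self_mem_cls z)) x' (self_mem_cls x')
  obtain ⟨g, hg⟩ := hxzcls
  obtain ⟨u, hu, e⟩ := hcls x' hg0 hcxz g
  rw [hg] at e
  obtain ⟨c1, hc1, z1, hz1', e1⟩ := mem_sup_of_normal_right.1
    (show (⟨u, hu⟩ : (P : Subgroup G)) ∈ M by rw [hMtop]; exact mem_top _)
  obtain ⟨c2, hc2, z2, hz2', e2⟩ := mem_sup_of_normal_right.1
    (show (⟨x', hg0⟩ : (P : Subgroup G)) ∈ M by rw [hMtop]; exact mem_top _)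
  have hzC : (⟨z, hzP⟩ : (P : Subgroup G)) ∈ C' := by
    have e' : (⟨x', hg0⟩ : (P : Subgroup G)) * ⟨z, hzP⟩ =
        ⟨u, hu⟩ * ⟨x', hg0⟩ * (⟨u, hu⟩ : (P : Subgroup G))⁻¹ := Subtype.ext e
    rw [← e1, ← e2] at e'
    have k1 : Commute z1 (c2 * z2) := ((Subgroup.mem_center_iff.1 hz1') (c2 * z2)).symm
    have k2 : Commute z2 c1⁻¹ := ((Subgroup.mem_center_iff.1 hz2') c1⁻¹).symm
    have k3 : Commute z2⁻¹ (c2⁻¹ * c1 * c2 * c1⁻¹) :=
      Commute.inv_left ((Subgroup.mem_center_iff.1 hz2') _).symm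
    have : (⟨z, hzP⟩ : (P : Subgroup G)) = c2⁻¹ * c1 * c2 * c1⁻¹ :=
      calc (⟨z, hzP⟩ : (P : Subgroup G)) = (c2 * z2)⁻¹ * (c1 * z1 * (c2 * z2) * (c1 * z1)⁻¹) := by
            rw [← e', inv_mul_cancel_left]
        _ = (c2 * z2)⁻¹ * (c1 * (z1 * (c2 * z2)) * z1⁻¹ * c1⁻¹) := by group
        _ = (c2 * z2)⁻¹ * (c1 * c2 * (z2 * c1⁻¹)) := by rw [k1.eq]; group
        _ = z2⁻¹ * (c2⁻¹ * c1 * c2 * c1⁻¹) * z2 := by rw [k2.eq]; group
        _ = c2⁻¹ * c1 * c2 * c1⁻¹ := by rw [k3.eq]; group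
    rw [this]
    exact mul_mem (mul_mem (mul_mem (inv_mem hc2) hc1) hc2) (inv_mem hc1)
  rw [hC', mem_subgroupOf, mem_centralizer_iff] at hzC
  have hVle : (V : Subgroup G) ≤ cz z := fun y hy => mem_cz.2 (hzC y hy)
  exact V.not_dvd_index (hvn.trans (index_dvd_of_le hVle))

end Cfsg.Agent.FGS4.SingularGraph
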