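import Cfsg.Agent.FGS4.SingularGraph.Bridge

/-! # The class-size graph of `p`-singular elements has diameter at most three -/

namespace Cfsg.Agent.FGS4.SingularGraph

open Subgroup ThreeSizes

variable {G : Type*} [Group G] [Finite G] {p : ℕ} [hp : Fact p.Prime]

theorem exists_power (hZ : ¬ p ∣ Nat.card (center G)) {g : G} (hg : p ∣ orderOf g) :
    ∃ x : G, x ^ p = 1 ∧ x ≠ 1 ∧ (cz x).index ∣ (cz g).index ∧ (cz x).index ≠ 1 := by
  have hox : orderOf (g ^ (orderOf g / p)) = p := by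
    rw [orderOf_pow_of_dvd (Nat.div_pos (Nat.le_of_dvd (orderOf_pos g) hg) hp.out.pos).ne'
      (Nat.div_dvd_of_dvd hg), Nat.div_div_self hg (orderOf_pos g).ne']
  refine ⟨g ^ (orderOf g / p), orderOf_dvd_iff_pow_eq_one.1 hox.dvd, ?_,
    index_dvd_of_le (cz_pow_le g _), fun h => ?_⟩
  · intro h; rw [h, orderOf_one] at hox; exact hp.out.one_lt.ne hox
  · exact notMem_center hZ hox.symm.dvd (idx_one_iff.1 h)

theorem exists_edge (hZ : ¬ p ∣ Nat.card (center G)) {x z : G} (hx : x ^ p = 1) (hx1 : x ≠ 1)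
    (hz : z ^ p = 1) (hz1 : z ≠ 1) (hix : (cz x).index ≠ 1) (hiz : (cz z).index ≠ 1) :
    ∃ t v : ℕ, t.Prime ∧ v.Prime ∧ t ∣ (cz x).index ∧ v ∣ (cz z).index ∧ Adj G p t v := by
  by_cases hc : (cz x).index.Coprime (cz z).index
  · by_cases hpx : p ∣ (cz x).index
    · exact bridge hZ hx hz hz1 hpx fun h => hp.out.one_lt.ne' (Nat.dvd_one.1 (hc ▸ Nat.dvd_gcd hpx h))
    by_cases hpz : p ∣ (cz z).index
    · obtain ⟨t, v, ht, hv, htz, hvx, g, hg, hgt, hgv⟩ := bridge hZ hz hx hx1 hpz hpx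
      exact ⟨v, t, hv, ht, hvx, htz, g, hg, hgv, hgt⟩
    · obtain ⟨S, hS⟩ := exists_sylow_le hpx
      obtain ⟨g, hg⟩ := exists_conj_mem S hz
      set z' := g * z * g⁻¹ with hz'def
      have hz' : z' ^ p = 1 := by rw [hz'def, conj_pow, hz]; simp
      have hiz' : (cz z').index = (cz z).index := index_cz_conj g z
      rw [← hiz'] at hc hpz hiz
      have hxz : Commute x z' := (show Commute z' x from mem_cz.1 (hS hg)).symm
      have hne : x * z' ≠ 1 := fun h => hiz (by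
        have e : (cz x).index = (cz z').index := by rw [eq_inv_of_mul_eq_one_left h, cz_inv]
        rw [e] at hc; exact (Nat.coprime_self _).1 hc)
      have hxzp : (x * z') ^ p = 1 := by rw [hxz.mul_pow, hx, hz', one_mul]
      have h1 := not_coprime_mul hxz hz' hc hpz hix
      have h2 := not_coprime_mul hxz.symm hx hc.symm hpx hiz
      obtain ⟨t, ht, ht1, ht2⟩ := Nat.Prime.not_coprime_iff_dvd.1 h1
      obtain ⟨v, hv, hv1, hv2⟩ := Nat.Prime.not_coprime_iff_dvd.1 h2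
      refine ⟨t, v, ht, hv, ht2, hiz' ▸ hv2, x * z', ?_, ht1, ?_⟩
      · rw [orderOf_eq_of_pow hxzp hne]
      · rwa [hxz.eq]
  · obtain ⟨t, ht, h1, h2⟩ := Nat.Prime.not_coprime_iff_dvd.1 hc
    exact ⟨t, t, ht, ht, h1, h2, x, (orderOf_eq_of_pow hx hx1).symm.dvd, h1, h1⟩

omit [Finite G] in
theorem Adj.mul {a b : ℕ} (ha : a.Prime) (hb : b.Prime) (hab : a ≠ b) (h : Adj G p a b) :
    ∃ x : G, p ∣ orderOf x ∧ a * b ∣ (cz x).index := by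
  obtain ⟨g, hg, h1, h2⟩ := h
  exact ⟨g, hg, ((Nat.coprime_primes ha hb).2 hab).mul_dvd_of_dvd_of_dvd h1 h2⟩

theorem diameter_three (hZ : ¬ p ∣ Nat.card (center G)) {r s : ℕ}
    (hr : r.Prime ∧ ∃ x : G, p ∣ orderOf x ∧ r ∣ (cz x).index)
    (hs : s.Prime ∧ ∃ x : G, p ∣ orderOf x ∧ s ∣ (cz x).index) (hrs : r ≠ s) :
    (∃ x : G, p ∣ orderOf x ∧ r * s ∣ (cz x).index) ∨
      (∃ t : ℕ, (t.Prime ∧ ∃ x : G, p ∣ orderOf x ∧ t ∣ (cz x).index) ∧ t ≠ r ∧ t ≠ s ∧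
        (∃ x : G, p ∣ orderOf x ∧ r * t ∣ (cz x).index) ∧
        (∃ x : G, p ∣ orderOf x ∧ t * s ∣ (cz x).index)) ∨
      (∃ t u : ℕ, (t.Prime ∧ ∃ x : G, p ∣ orderOf x ∧ t ∣ (cz x).index) ∧
        (u.Prime ∧ ∃ x : G, p ∣ orderOf x ∧ u ∣ (cz x).index) ∧ t ≠ r ∧ u ≠ s ∧ t ≠ u ∧
        (∃ x : G, p ∣ orderOf x ∧ r * t ∣ (cz x).index) ∧
        (∃ x : G, p ∣ orderOf x ∧ t * u ∣ (cz x).index) ∧
        (∃ x : G, p ∣ orderOf x ∧ u * s ∣ (cz x).index)) := by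
  obtain ⟨hr', g1, hg1, hr1⟩ := hr
  obtain ⟨hs', g2, hg2, hs1⟩ := hs
  obtain ⟨x1, hx1, hx1', hd1, hi1⟩ := exists_power hZ hg1
  obtain ⟨x2, hx2, hx2', hd2, hi2⟩ := exists_power hZ hg2
  obtain ⟨t, v, ht, hv, ht1, hv2, hA⟩ := exists_edge hZ hx1 hx1' hx2 hx2' hi1 hi2
  have hArt : Adj G p r t := ⟨g1, hg1, hr1, ht1.trans hd1⟩
  have hAvs : Adj G p v s := ⟨g2, hg2, hv2.trans hd2, hs1⟩
  have hSt : t.Prime ∧ ∃ x : G, p ∣ orderOf x ∧ t ∣ (cz x).index := ⟨ht, g1, hg1, ht1.trans hd1⟩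
  have hSv : v.Prime ∧ ∃ x : G, p ∣ orderOf x ∧ v ∣ (cz x).index := ⟨hv, g2, hg2, hv2.trans hd2⟩
  by_cases hts : t = s
  · exact Or.inl ((hts ▸ hArt).mul hr' hs' hrs)
  by_cases hvr : v = r
  · exact Or.inl ((hvr ▸ hAvs).mul hr' hs' hrs)
  by_cases htr : t = r
  · subst htr
    by_cases hvs : v = s
    · exact Or.inl ((hvs ▸ hA).mul hr' hs' hrs)
    · exact Or.inr (Or.inl ⟨v, hSv, hvr, hvs, hA.mul hr' hv (Ne.symm hvr), hAvs.mul hv hs' hvs⟩)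
  by_cases htv : t = v
  · subst htv
    exact Or.inr (Or.inl ⟨t, hSt, htr, hts, hArt.mul hr' ht (Ne.symm htr), hAvs.mul ht hs' hts⟩)
  by_cases hvs : v = s
  · exact Or.inr (Or.inl ⟨t, hSt, htr, hts, hArt.mul hr' ht (Ne.symm htr),
      (hvs ▸ hA).mul ht hs' hts⟩)
  exact Or.inr (Or.inr ⟨t, v, hSt, hSv, htr, hvs, htv, hArt.mul hr' ht (Ne.symm htr),
    hA.mul ht hv htv, hAvs.mul hv hs' hvs⟩)

end Cfsg.Agent.FGS4.SingularGraph
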